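import Mathlib
import Cfsg.Agent.Lib.Helper99.OTSP.Defs2
import Cfsg.Agent.Lib.Helper40.DualFactor

/-!
# OTSP (S5973): auxiliary lemmas for package NHYP
-/

set_option autoImplicit false
set_option linter.style.haveILetI false
set_option linter.unusedSectionVars false
open scoped MatrixGroups
open Matrix Polynomial

namespace Cfsg.Agent.Lib.Helper94.OTSP

open Cfsg.Agent.Lib.Helper23.OHyp Cfsg.Agent.Lib.Helper99.OTSP

universe u

section generic

variable {F : Type u} [Field F] {V : Type*} [AddCommGroup V] [Module F V]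

/-- An invariant subspace is invariant under every polynomial in the endomorphism. -/
theorem aeval_mem_of_inv (T : Module.End F V) (W : Submodule F V) (hW : ∀ w ∈ W, T w ∈ W)
    (p : F[X]) : ∀ w ∈ W, aeval T p w ∈ W := by
  induction p using Polynomial.induction_on with
  | C a =>
    intro w hw
    rw [aeval_C, Module.algebraMap_end_apply]
    exact W.smul_mem a hw
  | add p q hp hq =>
    intro w hw
    rw [map_add, LinearMap.add_apply]
    exact W.add_mem (hp w hw) (hq w hw)
  | monomial n a ih =>
    intro w hw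
    rw [pow_succ, ← mul_assoc, map_mul, aeval_X, Module.End.mul_apply]
    exact ih _ (hW w hw)

/-- Adjoint of a polynomial in `T`. -/
theorem adj_aeval (Bl : V →ₗ[F] V →ₗ[F] F) (T T' : Module.End F V)
    (hadj : ∀ u v, Bl (T u) v = Bl u (T' v)) (p : F[X]) :
    ∀ u v, Bl (aeval T p u) v = Bl u (aeval T' p v) := by
  induction p using Polynomial.induction_on with
  | C a =>
    intro u v
    simp [aeval_C, Module.algebraMap_end_apply]
  | add p q hp hq =>
    intro u v
    simp [map_add, LinearMap.add_apply, hp, hq]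
  | monomial n a ih =>
    intro u v
    have e1 : (C a * X ^ (n + 1) : F[X]) = X * (C a * X ^ n) := by ring
    have e2 : (C a * X ^ (n + 1) : F[X]) = (C a * X ^ n) * X := by ring
    have h1 : aeval T (C a * X ^ (n + 1)) = T * aeval T (C a * X ^ n) := by
      rw [e1, map_mul, aeval_X]
    have h2 : aeval T' (C a * X ^ (n + 1)) = aeval T' (C a * X ^ n) * T' := by
      rw [e2, map_mul, aeval_X]
    rw [h1, h2, Module.End.mul_apply, Module.End.mul_apply, hadj, ih]

/-- Polynomials in `T` commute. -/
theorem aeval_comm (T : Module.End F V) (p q : F[X]) :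
    aeval T p * aeval T q = aeval T q * aeval T p := by
  rw [← map_mul, ← map_mul, mul_comm]

/-- Peeling factors off a product that sends `v` into `L`. -/
theorem exists_factor_step (T : Module.End F V) (L R : Submodule F V)
    (hR : ∀ w ∈ R, T w ∈ R) (l : List F[X]) :
    ∀ v ∈ R, v ∉ L → aeval T l.prod v ∈ L →
      ∃ π ∈ l, ∃ v' ∈ R, v' ∉ L ∧ aeval T π v' ∈ L := by
  induction l with
  | nil =>
    intro v _ hvL h
    simp at h
    exact absurd h hvL
  | cons π l ih =>
    intro v hv hvL h
    by_cases h' : aeval T l.prod v ∈ L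
    · obtain ⟨π', hπ', v', hv', hv'L, h''⟩ := ih v hv hvL h'
      exact ⟨π', List.mem_cons_of_mem _ hπ', v', hv', hv'L, h''⟩
    · refine ⟨π, List.mem_cons_self, aeval T l.prod v, aeval_mem_of_inv T R hR _ v hv, h', ?_⟩
      rw [List.prod_cons, map_mul, Module.End.mul_apply] at h
      exact h

/-- A subspace of maximal dimension with a given property. -/
theorem exists_max_finrank [FiniteDimensional F V] (P : Submodule F V → Prop) (h0 : P ⊥) :
    ∃ L, P L ∧ ∀ L', P L' → Module.finrank F ↥L' ≤ Module.finrank F ↥L := by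
  classical
  let p : ℕ → Prop := fun n => ∃ L, P L ∧ Module.finrank F ↥L = n
  have h0' : p 0 := ⟨⊥, h0, finrank_bot F V⟩
  have hspec := Nat.findGreatest_spec (P := p) (Nat.zero_le (Module.finrank F V)) h0'
  obtain ⟨L, hL, hLn⟩ := hspec
  refine ⟨L, hL, fun L' hL' => ?_⟩
  rw [hLn]
  exact Nat.le_findGreatest (Submodule.finrank_le L') ⟨L', hL', rfl⟩

/-- Rank-nullity for the restriction of a linear map to a subspace. -/
theorem finrank_map_add_inf_ker' {V₂ : Type*} [AddCommGroup V₂] [Module F V₂]
    [FiniteDimensional F V] (f : V →ₗ[F] V₂) (p : Submodule F V) :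
    Module.finrank F ↥(p.map f) + Module.finrank F ↥(p ⊓ LinearMap.ker f) =
      Module.finrank F ↥p := by
  have h := LinearMap.finrank_range_add_finrank_ker (f.domRestrict p)
  have hr : LinearMap.range (f.domRestrict p) = p.map f := by
    ext y
    simp only [LinearMap.mem_range, Submodule.mem_map, LinearMap.domRestrict_apply,
      Subtype.exists]
    constructor
    · rintro ⟨a, ha, rfl⟩; exact ⟨a, ha, rfl⟩
    · rintro ⟨a, ha, rfl⟩; exact ⟨a, ha, rfl⟩
  have he : (LinearMap.ker (f.domRestrict p)).map p.subtype = p ⊓ LinearMap.ker f := by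
    ext y
    simp only [Submodule.mem_map, LinearMap.mem_ker, LinearMap.domRestrict_apply,
      Submodule.subtype_apply, Submodule.mem_inf, Subtype.exists]
    constructor
    · rintro ⟨a, ha, h0, rfl⟩; exact ⟨ha, h0⟩
    · rintro ⟨hy, h0⟩; exact ⟨y, hy, h0, rfl⟩
  rw [hr, ← Submodule.finrank_map_subtype_eq p (LinearMap.ker (f.domRestrict p)), he] at h
  exact h

/-- Evaluating the reverse polynomial at an invertible element. -/
theorem aeval_reverse_eq' {A : Type*} [Ring A] [Algebra F A] {y z : A} (hyz : y * z = 1)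
    (f : Polynomial F) :
    Polynomial.aeval y f.reverse = y ^ f.natDegree * Polynomial.aeval z f := by
  have hpow : ∀ j : ℕ, y ^ j * z ^ j = 1 := by
    intro j
    induction j with
    | zero => simp
    | succ j ih => rw [pow_succ, pow_succ', mul_assoc, ← mul_assoc y, hyz, one_mul, ih]
  rw [Polynomial.aeval_eq_sum_range' (Nat.lt_succ_of_le (Polynomial.reverse_natDegree_le f)) y,
    Polynomial.aeval_eq_sum_range z, Finset.mul_sum,
    ← Finset.sum_range_reflect _ (f.natDegree + 1)]
  refine Finset.sum_congr rfl fun j hj => ?_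
  have hj' : j ≤ f.natDegree := Nat.lt_succ_iff.mp (Finset.mem_range.mp hj)
  have e1 : f.natDegree + 1 - 1 - j = f.natDegree - j := by omega
  rw [e1, Polynomial.coeff_reverse, Polynomial.revAt_le (Nat.sub_le _ _),
    Nat.sub_sub_self hj', mul_smul_comm]
  congr 1
  have e2 : f.natDegree = (f.natDegree - j) + j := by omega
  conv_rhs => rw [e2, pow_add, mul_assoc, hpow]
  rw [mul_one]

end generic

section cop

open Cfsg.Agent.Lib.Helper40.DualPoly

variable {F : Type u} [Field F] [Fintype F]

/-- For `i = ord_r(q)` odd, an irreducible factor of `X ^ r - 1` other than `X - 1` is coprime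
to its reciprocal. -/
theorem isCoprime_reverse_of_odd (r : ℕ) (hr : r.Prime) (hr2 : r ≠ 2)
    (hq : ¬ r ∣ Fintype.card F) (hodd : Odd (ordI (Fintype.card F) r)) (π : F[X])
    (hm : π.Monic) (hπ : Irreducible π) (hdvd : π ∣ X ^ r - 1) (hπ1 : π ≠ X - C 1) :
    IsCoprime π π.reverse := by
  classical
  obtain ⟨p, hp⟩ := CharP.exists F
  haveI := hp
  haveI : Fact p.Prime := ⟨CharP.char_is_prime F p⟩
  have hself := dual_eq_self_iff_exists (RingHom.id F) p (fun a => rfl) 1 0 (by simp)
    (fun x => by simp) r hr π hm hπ hdvd hπ1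
  have hev := exists_dvd_one_add_pow_iff r hr hr2 (Fintype.card F) hq
  have hne : dual (RingHom.id F) π ≠ π := by
    intro h
    have h1 := hev.mp (hself.mp h)
    exact (Nat.not_even_iff_odd.mpr hodd) h1
  have h0 : π.coeff 0 ≠ 0 := by
    intro h
    have hX : (X : F[X]) ∣ X ^ r - 1 := (Polynomial.X_dvd_iff.mpr h).trans hdvd
    rw [Polynomial.X_dvd_iff] at hX
    simp [Ne.symm hr.ne_zero] at hX
  rw [hπ.coprime_iff_not_dvd]
  intro hdiv
  apply hne
  have hmd : (dual (RingHom.id F) π).Monic := monic_dual _ π h0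
  have hdd : π ∣ dual (RingHom.id F) π := by
    unfold dual
    rw [Polynomial.map_id]
    exact Dvd.dvd.mul_left hdiv _
  have hdeg : (dual (RingHom.id F) π).natDegree ≤ π.natDegree :=
    le_of_eq (natDegree_dual _ π h0)
  exact Polynomial.eq_of_monic_of_dvd_of_natDegree_le hm hmd hdd hdeg

end cop

end Cfsg.Agent.Lib.Helper94.OTSP
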