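import Mathlib
import Cfsg.Agent.Lib.Helper99.OTSP.Defs2

/-!
# OTSP (S5973): package TSBD

A totally singular subspace of a nondegenerate subspace has at most half its dimension.
-/

set_option autoImplicit false
set_option linter.style.haveILetI false
set_option linter.unusedSectionVars false
open scoped MatrixGroups
open Matrix

namespace Cfsg.Agent.Lib.Helper94.OTSP

open Cfsg.Agent.Lib.Helper23.OHyp Cfsg.Agent.Lib.Helper99.OTSP

universe u

section

variable {F : Type u} [Field F] {ι : Type} [Fintype ι] [DecidableEq ι]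

/-- The polar form vanishes on a totally singular subspace. -/
theorem polar_eq_zero_of_ts {Q : (ι → F) → F} {L : Submodule F (ι → F)} (hL : TS Q L)
    {u v : ι → F} (hu : u ∈ L) (hv : v ∈ L) : QuadraticMap.polar Q u v = 0 := by
  unfold QuadraticMap.polar
  rw [hL _ (L.add_mem hu hv), hL u hu, hL v hv]
  simp

/-- The polar form as a bilinear map. -/
noncomputable def polarLin {Q : (ι → F) → F} (hQ : Cfsg.Geo.IsNondegenerateQuadraticForm Q) :
    (ι → F) →ₗ[F] (ι → F) →ₗ[F] F :=
  LinearMap.mk₂ F (QuadraticMap.polar Q) hQ.polar_bilinear.add_left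
    (fun c x v => by rw [hQ.polar_bilinear.smul_left, smul_eq_mul])
    hQ.polar_bilinear.add_right
    (fun c x v => by rw [hQ.polar_bilinear.smul_right, smul_eq_mul])

theorem polarLin_apply {Q : (ι → F) → F} (hQ : Cfsg.Geo.IsNondegenerateQuadraticForm Q)
    (u v : ι → F) : polarLin hQ u v = QuadraticMap.polar Q u v := rfl

/-- Generic bound: a subspace `L` of `X` on which a form `B`, nondegenerate on `X`, vanishes
has `2 dim L ≤ dim X`. -/
theorem two_mul_finrank_le_of_isotropic (B : (ι → F) →ₗ[F] (ι → F) →ₗ[F] F)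
    (X L : Submodule F (ι → F)) (hLX : L ≤ X)
    (hnd : ∀ w ∈ X, w ≠ 0 → ∃ x ∈ X, B w x ≠ 0)
    (hiso : ∀ u ∈ L, ∀ v ∈ L, B u v = 0) :
    2 * Module.finrank F ↥L ≤ Module.finrank F ↥X := by
  -- `ψ : L → Dual X`
  let ψ : ↥L →ₗ[F] Module.Dual F ↥X := (B.domRestrict L).compr₂ₛₗ (LinearMap.id) |>.flip.comp
    X.subtype |>.flip
  have hψ : ∀ (l : ↥L) (x : ↥X), ψ l x = B (l : ι → F) (x : ι → F) := fun l x => rfl
  have hinj : Function.Injective ψ := by
    rw [← LinearMap.ker_eq_bot, LinearMap.ker_eq_bot']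
    intro l hl
    by_contra hl0
    have hl0' : (l : ι → F) ≠ 0 := fun h => hl0 (Subtype.ext h)
    obtain ⟨x, hx, hne⟩ := hnd (l : ι → F) (hLX l.2) hl0'
    apply hne
    have := LinearMap.congr_fun hl ⟨x, hx⟩
    rw [hψ] at this
    exact this
  set L' : Submodule F ↥X := L.comap X.subtype with hL'
  have hL'fin : Module.finrank F ↥L' = Module.finrank F ↥L :=
    (Submodule.comapSubtypeEquivOfLe hLX).finrank_eq
  have hrange : LinearMap.range ψ ≤ L'.dualAnnihilator := by
    rintro φ ⟨l, rfl⟩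
    rw [Submodule.mem_dualAnnihilator]
    intro w hw
    rw [hψ]
    exact hiso _ l.2 _ hw
  have h1 : Module.finrank F ↥L = Module.finrank F ↥(LinearMap.range ψ) :=
    (LinearMap.finrank_range_of_inj hinj).symm
  have h2 := Submodule.finrank_mono hrange
  have h3 := Subspace.finrank_add_finrank_dualAnnihilator_eq L'
  omega

end

/-- Package TSBD. -/
theorem pkgTsBd : PkgTsBd.{u} := by
  intro F _ _ ι _ _ Q hQ X L hX hLX hL
  apply two_mul_finrank_le_of_isotropic (polarLin hQ) X L hLX
  · intro w hw hw0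
    obtain ⟨-, ⟨x, hx, hne⟩⟩ := hX w hw hw0
    exact ⟨x, hx, hne⟩
  · intro u hu v hv
    exact polar_eq_zero_of_ts hL hu hv

end Cfsg.Agent.Lib.Helper94.OTSP
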