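import Mathlib
import Cfsg.Agent.Lib.Helper99.OTSP.Defs2
import Cfsg.Agent.Lib.Helper94.OTSP.TsBd
import Cfsg.Agent.Lib.Helper94.OTSP.NHypAux

/-!
# OTSP (S5973): package NHYP

For `i = ord_r(q)` odd, `N = movSp y` has an invariant totally singular subspace of half its
dimension.
-/

set_option autoImplicit false
set_option linter.style.haveILetI false
set_option linter.unusedSectionVars false
set_option maxHeartbeats 1000000
open scoped MatrixGroups
open Matrix Polynomial

namespace Cfsg.Agent.Lib.Helper94.OTSP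

open Cfsg.Agent.Lib.Helper23.OHyp Cfsg.Agent.Lib.Helper99.OTSP

universe u

/-- Package NHYP, from SPLIT. -/
theorem pkgNHyp_of (hSp : Cfsg.Agent.Lib.Helper99.OTSP.PkgSplit.{u}) :
    Cfsg.Agent.Lib.Helper99.OTSP.PkgNHyp.{u} := by
  intro F _ _ ι _ _ Q r y hstd hiodd
  classical
  obtain ⟨hperp, hcompl, hNinv, hCnd, hNnd, -⟩ := hSp F ι Q r y hstd
  have hQ := hstd.nondeg
  have hr := hstd.prime
  have hr1 : 1 ≤ r := hr.one_le
  set Bl := polarLin hQ with hBl
  have hBlapp : ∀ u v, Bl u v = QuadraticMap.polar Q u v := fun u v => rfl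
  have hsymm : ∀ u v, Bl u v = Bl v u := fun u v => QuadraticMap.polar_comm Q u v
  have hQadd : ∀ u v, Q (u + v) = Q u + Q v + Bl u v := by
    intro u v
    rw [hBlapp]; unfold QuadraticMap.polar; ring
  have hQ0 : Q 0 = 0 := by
    have := hQ.smul 0 0
    simpa using this
  set T : Module.End F (ι → F) := Matrix.toLin' y with hT
  have hTapp : ∀ v, T v = y *ᵥ v := fun v => Matrix.toLin'_apply y v
  have hQT : ∀ v, Q (T v) = Q v := fun v => by rw [hTapp]; exact hstd.isom v
  have hBT : ∀ u v, Bl (T u) (T v) = Bl u v := by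
    intro u v
    rw [hBlapp, hBlapp]; unfold QuadraticMap.polar
    rw [← map_add, hQT, hQT, hQT]
  have hTr : T ^ r = 1 := by
    rw [hT, ← Matrix.toLin'_pow, hstd.pow, Matrix.toLin'_one]; rfl
  set T' : Module.End F (ι → F) := T ^ (r - 1) with hT'
  have hTT' : T * T' = 1 := by rw [hT', ← pow_succ', Nat.sub_add_cancel hr1, hTr]
  have hadj : ∀ u v, Bl (T u) v = Bl u (T' v) := by
    intro u v
    have h1 : T (T' v) = v := by rw [← Module.End.mul_apply, hTT']; rfl
    rw [← hBT u (T' v), h1]
  have hadjp := adj_aeval Bl T T' hadj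
  have hT'aeval : T' = aeval T (X ^ (r - 1) : F[X]) := by rw [map_pow, aeval_X]
  -- `N`
  set N := movSp y with hN
  have hNT : ∀ w ∈ N, T w ∈ N := fun w hw => hNinv (Submodule.mem_map_of_mem hw)
  set Φ : F[X] := ∑ k ∈ Finset.range r, X ^ k with hΦ
  have hΦN : ∀ v ∈ N, aeval T Φ v = 0 := by
    rintro _ ⟨w, rfl⟩
    have h1 : aeval T (Φ * (X - 1)) = 0 := by
      rw [hΦ, geom_sum_mul, map_sub, map_pow, aeval_X, map_one, hTr, sub_self]
    have h2 : aeval T (Φ * (X - 1)) = aeval T Φ * (T - 1) := by
      rw [map_mul, map_sub, aeval_X, map_one]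
    rw [h2] at h1
    have h3 := LinearMap.congr_fun h1 w
    rw [Module.End.mul_apply, LinearMap.zero_apply] at h3
    exact h3
  have hNinj : ∀ v ∈ N, T v = v → v = 0 := by
    intro v hv hTv
    have hvC : v ∈ fixSp y := by
      show v ∈ LinearMap.ker (Matrix.toLin' y - 1)
      rw [LinearMap.mem_ker, LinearMap.sub_apply, ← hT, hTv]
      simp
    have h1 : v ∈ fixSp y ⊓ movSp y := ⟨hvC, hv⟩
    rw [hcompl.inf_eq_bot] at h1
    exact (Submodule.mem_bot F).mp h1
  -- `(r : F) ≠ 0`
  have hrF : (r : F) ≠ 0 := by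
    intro h0
    obtain ⟨p, hp⟩ := CharP.exists F
    haveI := hp
    have hpp : p.Prime := CharP.char_is_prime F p
    have h1 := (CharP.cast_eq_zero_iff F p r).mp h0
    have h2 : p = r := (Nat.prime_dvd_prime_iff_eq hpp hr).mp h1
    obtain ⟨n, -, hn⟩ := FiniteField.card F p
    apply hstd.ndvd
    rw [hn, ← h2]
    exact dvd_pow_self p n.ne_zero
  have hΦ1 : Φ.eval 1 = (r : F) := by
    rw [hΦ, Polynomial.eval_finsetSum]
    simp
  have hΦ0 : Φ ≠ 0 := by
    intro h
    rw [h, Polynomial.eval_zero] at hΦ1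
    exact hrF hΦ1.symm
  have hΦdvd : Φ ∣ (X ^ r - 1 : F[X]) := ⟨X - 1, (geom_sum_mul X r).symm⟩
  -- a maximal invariant totally singular subspace of `N`
  obtain ⟨L, ⟨hLN, hLT, hLts⟩, hLmax⟩ := exists_max_finrank (F := F) (V := ι → F)
    (fun L => L ≤ N ∧ (∀ w ∈ L, T w ∈ L) ∧ TS Q L)
    ⟨bot_le, fun w hw => by rw [(Submodule.mem_bot F).mp hw, map_zero]; exact Submodule.zero_mem _,
      fun w hw => by rw [(Submodule.mem_bot F).mp hw]; exact hQ0⟩
  have hLiso : ∀ u ∈ L, ∀ v ∈ L, Bl u v = 0 := fun u hu v hv => polar_eq_zero_of_ts hLts hu hv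
  have hT'L : ∀ w ∈ L, T' w ∈ L := by
    intro w hw
    rw [hT'aeval]
    exact aeval_mem_of_inv T L hLT _ w hw
  -- `R = L^⊥ ∩ N`
  set φ : (ι → F) →ₗ[F] Module.Dual F ↥L := (Bl.domRestrict L).flip with hφ
  have hφapp : ∀ (v : ι → F) (l : ↥L), φ v l = Bl (l : ι → F) v := fun v l => rfl
  have hker : ∀ v, v ∈ LinearMap.ker φ ↔ ∀ l ∈ L, Bl l v = 0 := by
    intro v
    rw [LinearMap.mem_ker]
    constructor
    · intro h l hl
      have := LinearMap.congr_fun h ⟨l, hl⟩
      rw [hφapp] at this
      exact this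
    · intro h
      refine LinearMap.ext fun l => ?_
      rw [hφapp]
      exact h l l.2
  set R : Submodule F (ι → F) := N ⊓ LinearMap.ker φ with hR
  have hLR : L ≤ R := fun l hl => ⟨hLN hl, (hker l).mpr (fun l' hl' => hLiso l' hl' l hl)⟩
  have hRT : ∀ w ∈ R, T w ∈ R := by
    rintro w ⟨hwN, hwk⟩
    refine ⟨hNT w hwN, (hker _).mpr ?_⟩
    intro l hl
    rw [hsymm, hadj, hsymm]
    exact (hker w).mp hwk _ (hT'L l hl)
  -- the key step: `R ≤ L`
  have hRL : R ≤ L := by
    by_contra hnot
    obtain ⟨v, hvR, hvL⟩ := SetLike.not_le_iff_exists.mp hnot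
    -- factorisation of `Φ`
    obtain ⟨c, hc⟩ := UniqueFactorizationMonoid.prod_normalizedFactors hΦ0
    set nf := UniqueFactorizationMonoid.normalizedFactors Φ with hnf
    have hprod : aeval T nf.toList.prod v ∈ L := by
      rw [Multiset.prod_toList]
      have h1 : nf.prod = Φ * ((c⁻¹ : F[X]ˣ) : F[X]) := by
        rw [← hc, mul_assoc, ← Units.val_mul, mul_inv_cancel, Units.val_one, mul_one]
      rw [h1, mul_comm, map_mul, Module.End.mul_apply, hΦN v hvR.1, map_zero]
      exact L.zero_mem
    obtain ⟨π, hπl, v', hv'R, hv'L, hπv'⟩ := exists_factor_step T L R hRT nf.toList v hvR hvL hprod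
    have hπnf : π ∈ nf := Multiset.mem_toList.mp hπl
    have hπirr : Irreducible π := UniqueFactorizationMonoid.irreducible_of_normalized_factor π hπnf
    have hπmon : π.Monic := by
      rw [← UniqueFactorizationMonoid.normalize_normalized_factor π hπnf]
      exact Polynomial.monic_normalize hπirr.ne_zero
    have hπΦ : π ∣ Φ := UniqueFactorizationMonoid.dvd_of_mem_normalizedFactors hπnf
    have hπ1 : π ≠ X - C 1 := by
      intro h
      rw [h] at hπΦ
      have := Polynomial.dvd_iff_isRoot.mp hπΦ
      rw [Polynomial.IsRoot, hΦ1] at this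
      exact hrF this
    have hcop : IsCoprime π π.reverse :=
      isCoprime_reverse_of_odd r hr hstd.ne_two hstd.ndvd hiodd π hπmon hπirr
        (hπΦ.trans hΦdvd) hπ1
    -- the bigger subspace
    set U : Submodule F (ι → F) := R ⊓ L.comap (aeval T π) with hU
    have hLU : L ≤ U := fun l hl => ⟨hLR hl, aeval_mem_of_inv T L hLT π l hl⟩
    have hv'U : v' ∈ U := ⟨hv'R, hπv'⟩
    have hUT : ∀ w ∈ U, T w ∈ U := by
      rintro w ⟨hwR, hwL⟩
      refine ⟨hRT w hwR, ?_⟩
      show aeval T π (T w) ∈ L
      have hcomm : aeval T π (T w) = T (aeval T π w) := by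
        have := aeval_comm T π X
        rw [aeval_X] at this
        have h2 := LinearMap.congr_fun this w
        rw [Module.End.mul_apply, Module.End.mul_apply] at h2
        exact h2
      rw [hcomm]
      exact hLT _ hwL
    have hUR : ∀ u ∈ U, ∀ l ∈ L, Bl l u = 0 := fun u hu l hl => (hker u).mp hu.1.2 l hl
    -- `Bl = 0` on `U`
    obtain ⟨a, b, hab⟩ := hcop
    have hrev : aeval T π.reverse = T ^ π.natDegree * aeval T' π := aeval_reverse_eq' hTT' π
    have hT'π : aeval T' π = aeval T (π.comp (X ^ (r - 1))) := by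
      rw [Polynomial.aeval_comp, ← hT'aeval]
    have hUiso : ∀ u ∈ U, ∀ u' ∈ U, Bl u u' = 0 := by
      intro u hu u' hu'
      set w := aeval T (b * X ^ π.natDegree) u' with hw
      have hwU : w ∈ U := aeval_mem_of_inv T U hUT _ u' hu'
      have hdec : u' = aeval T a (aeval T π u') + aeval T' π w := by
        have h1 := congrArg (fun p => aeval T p u') hab
        simp only [map_add, map_mul, map_one, LinearMap.add_apply, Module.End.mul_apply,
          Module.End.one_apply] at h1
        have h2 : aeval T b (aeval T π.reverse u') = aeval T' π w := by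
          have hop : aeval T b * aeval T π.reverse =
              aeval T' π * aeval T (b * X ^ π.natDegree) := by
            rw [hrev, hT'π, ← mul_assoc]
            have h5 : aeval T b * T ^ π.natDegree = aeval T (b * X ^ π.natDegree) := by
              rw [map_mul, map_pow, aeval_X]
            rw [h5, aeval_comm]
          have h6 := LinearMap.congr_fun hop u'
          rw [Module.End.mul_apply, Module.End.mul_apply] at h6
          rw [hw]
          exact h6
        rw [h2] at h1
        exact h1.symm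
      rw [hdec, map_add]
      have e1 : Bl u (aeval T a (aeval T π u')) = 0 := by
        rw [hsymm]
        exact hUR u hu _ (aeval_mem_of_inv T L hLT a _ hu'.2)
      have e2 : Bl u (aeval T' π w) = 0 := by
        rw [← hadjp]
        exact hUR w hwU _ hu.2
      rw [e1, e2, add_zero]
    -- `Q = 0` on `U`
    have hUts : TS Q U := by
      intro u hu
      by_cases h2 : (2 : F) = 0
      · -- characteristic two
        have hsub : ∀ w ∈ U, (T - 1) w ∈ U := fun w hw => by
          rw [LinearMap.sub_apply]; exact U.sub_mem (hUT w hw) hw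
        let g : ↥U →ₗ[F] ↥U := (T - 1).restrict hsub
        have hginj : Function.Injective g := by
          rw [← LinearMap.ker_eq_bot, LinearMap.ker_eq_bot']
          intro w hw0
          have h3 := congrArg Subtype.val hw0
          simp only [g, LinearMap.restrict_apply, LinearMap.sub_apply, Module.End.one_apply,
            ZeroMemClass.coe_zero] at h3
          apply Subtype.ext
          exact hNinj _ (w.2.1.1) (sub_eq_zero.mp h3)
        obtain ⟨u₀, hu₀⟩ := (LinearMap.injective_iff_surjective.mp hginj) ⟨u, hu⟩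
        have h4 : u = T (u₀ : ι → F) + (-1 : F) • (u₀ : ι → F) := by
          have h3 := congrArg Subtype.val hu₀
          simp only [g, LinearMap.restrict_apply, LinearMap.sub_apply, Module.End.one_apply] at h3
          rw [← h3]; simp [sub_eq_add_neg]
        rw [h4, hQadd, hQT, hQ.smul, hUiso _ (hUT _ u₀.2) _ (U.smul_mem _ u₀.2)]
        have : (2 : F) * Q (u₀ : ι → F) = 0 := by rw [h2, zero_mul]
        linear_combination this
      · have h3 := hUiso u hu u hu
        rw [hBlapp] at h3
        unfold QuadraticMap.polar at h3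
        have h4 : Q (u + u) = (2 : F) ^ 2 * Q u := by
          rw [← two_smul F u]; exact hQ.smul 2 u
        rw [h4] at h3
        have h5 : (2 : F) * Q u = 0 := by linear_combination h3
        exact (mul_eq_zero.mp h5).resolve_left h2
    have hlt : Module.finrank F ↥L < Module.finrank F ↥U := by
      apply Submodule.finrank_lt_finrank_of_lt
      exact lt_of_le_of_ne hLU (fun h => hv'L (h ▸ hv'U))
    have hle := hLmax U ⟨inf_le_left.trans inf_le_left, hUT, hUts⟩
    omega
  -- dimensions
  have e1 : Module.finrank F ↥(N.map φ) + Module.finrank F ↥R = Module.finrank F ↥N :=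
    finrank_map_add_inf_ker' φ N
  have e2 : Module.finrank F ↥(N.map φ) ≤ Module.finrank F ↥L := by
    have := Submodule.finrank_le (N.map φ)
    rw [Subspace.dual_finrank_eq] at this
    exact this
  have e3 : Module.finrank F ↥R ≤ Module.finrank F ↥L := Submodule.finrank_mono hRL
  have e4 : 2 * Module.finrank F ↥L ≤ Module.finrank F ↥N := by
    apply two_mul_finrank_le_of_isotropic Bl N L hLN
    · intro w hw hw0
      obtain ⟨-, ⟨x, hx, hne⟩⟩ := hNnd w hw hw0
      exact ⟨x, hx, hne⟩
    · exact hLiso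
  refine ⟨L, hLN, ?_, hLts, ?_⟩
  · rintro _ ⟨w, hw, rfl⟩
    exact hLT w hw
  · omega

end Cfsg.Agent.Lib.Helper94.OTSP
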